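import Cfsg.Agent.ChevSmall.Tools
import Cfsg.Prelude.Def_ChevB2

/-!
The group of type B2 over two elements on an orbit of six row vectors (owner: helper32).
-/

namespace Cfsg.Agent.ChevSmall.B2

open Cfsg.Lie
open scoped Matrix

/-- The six row vectors. -/
def orbit (i : Fin 6) : chevB2.Idx → ZMod 2 :=
  vecOfList (idxPos chevB2) (([[0, 1, 0, 0, 0, 1, 1, 0, 0, 0], [0, 1, 0, 0, 0, 1, 1, 0, 0, 1],
    [0, 1, 1, 0, 0, 1, 1, 0, 0, 0], [0, 1, 1, 0, 0, 1, 0, 0, 0, 1], [0, 1, 1, 0, 0, 0, 1, 0, 0, 1],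
    [0, 1, 1, 0, 0, 0, 0, 0, 0, 1]] : List (List ℕ)).getD i.val [])

/-- The permutation of a root involution. -/
def gperm (r : ℕ) : Equiv.Perm (Fin 6) :=
  permOfList (([[1, 0, 2, 3, 4, 5], [1, 0, 3, 2, 5, 4], [1, 0, 4, 5, 2, 3], [0, 1, 2, 3, 5, 4], [0, 1, 2, 5, 4, 3],
    [2, 3, 0, 1, 5, 4], [2, 4, 0, 5, 1, 3], [2, 1, 0, 3, 4, 5]] : List (List ℕ)).getD r [])

/-- Words for the adjacent transpositions. -/
def swapWord (k : Fin 5) : List ℕ :=
  ([[0], [0, 7, 0], [0, 1, 3], [3, 4, 3], [3]] : List (List ℕ)).getD k.val []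

theorem swapWord_ok : ∀ k : Fin 5, wordProd gperm (swapWord k) = Equiv.swap k.castSucc k.succ ∧
    ∀ r ∈ swapWord k, r < 8 := by decide +kernel

theorem orbit_inj : ∀ i j : Fin 6, orbit i = orbit j → i = j := by decide +kernel

theorem gen_act : ∀ (r : Fin chevB2.nroots) (i : Fin 6),
    orbit (gperm r i) ᵥ* chevB2.xMat (ZMod 2) r 1 = orbit i ∧ orbit i ᵥ* chevB2.xMat (ZMod 2) r 0 = orbit i := by
  decide +kernel

variable {F : Type*} [Field F] [Fintype F]

/-- The group is the symmetric group of degree six. -/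
theorem iso_perm (hS : ChevGrp.Rules chevB2 F) (hF : Fintype.card F = 2)
    (hcard : Nat.card ↥(chevB2.group F) = 720) :
    Nonempty (↥(chevB2.group F) ≃* Equiv.Perm (Fin 6)) := by
  classical
  let e : ZMod 2 ≃+* F := ZMod.ringEquivOfPrime F Nat.prime_two hF
  let f : ZMod 2 →+* F := e.toRingHom
  let O : Fin 6 → chevB2.Idx → F := fun i => f ∘ orbit i
  let R : ↥(chevB2.group F) → Equiv.Perm (Fin 6) → Prop := fun g σ =>
    ∀ i, O (σ i) ᵥ* (g.1 : Matrix chevB2.Idx chevB2.Idx F) = O i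
  have hO : Function.Injective O := fun i j h => orbit_inj i j (funext fun a => f.injective (congrFun h a))
  have hmap : ∀ (r : Fin chevB2.nroots) (t : ZMod 2) (i : Fin 6),
      O i ᵥ* chevB2.xMat F r (f t) = f ∘ (orbit i ᵥ* chevB2.xMat (ZMod 2) r t) := fun r t i => by
    funext a
    rw [Function.comp_apply, RingHom.map_vecMul, ChevGrp.xMat_map]
  have hR : ∀ g σ, R g σ → ∀ i, O i ᵥ* (g.1 : Matrix chevB2.Idx chevB2.Idx F) = O (σ⁻¹ i) := fun g σ h i => by
    simpa using h (σ⁻¹ i)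
  have hcases : ∀ u : ZMod 2, u = 0 ∨ u = 1 := by decide
  have hgen : ∀ t ∈ gens chevB2 F, ∃ σ, R t σ := by
    rintro g ⟨r, t, hg⟩
    obtain ⟨u, rfl⟩ : ∃ u, f u = t := e.surjective t
    rcases hcases u with rfl | rfl
    · exact ⟨1, fun i => by rw [hg, Equiv.Perm.one_apply, hmap, (gen_act r i).2]⟩
    · exact ⟨gperm r, fun i => by rw [hg, hmap, (gen_act r i).1]⟩
  have huniq : ∀ g σ σ', R g σ → R g σ' → σ = σ' := fun g σ σ' h h' => by
    have : σ⁻¹ = σ'⁻¹ := Equiv.ext fun i => hO ((hR g σ h i).symm.trans (hR g σ' h' i))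
    exact inv_injective this
  obtain ⟨φ, hφ⟩ := exists_hom_of_rel R (fun i => by simp [O])
    (fun g g' σ σ' h h' i => by
      show O (σ (σ' i)) ᵥ* ((g * g').1 : Matrix chevB2.Idx chevB2.Idx F) = O i
      rw [Subgroup.coe_mul, Units.val_mul, ← Matrix.vecMul_vecMul, h (σ' i), h' i])
    (fun g σ h i => by
      conv_lhs => rw [← h (σ⁻¹ i), Matrix.vecMul_vecMul]
      simp)
    huniq (closure_gens chevB2 F) hgen
  have hgr : ∀ r < 8, gperm r ∈ φ.range := fun r hr => by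
    obtain ⟨g, -, hg⟩ := exists_gen hS (⟨r, hr⟩ : Fin chevB2.nroots) (f 1)
    exact ⟨g, huniq g _ _ (hφ g) fun i => by rw [hg, hmap, (gen_act ⟨r, hr⟩ i).1]⟩
  have hsurj : Function.Surjective φ := by
    rw [← MonoidHom.range_eq_top, eq_top_iff]
    intro σ hσ'
    clear hσ'
    have hσ : σ ∈ Submonoid.closure (Set.range fun k : Fin 5 => Equiv.swap k.castSucc k.succ) := by
      rw [Equiv.Perm.mclosure_swap_castSucc_succ]; trivial
    induction hσ using Submonoid.closure_induction with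
    | mem x hx =>
      obtain ⟨k, rfl⟩ := hx
      show Equiv.swap k.castSucc k.succ ∈ φ.range
      rw [← (swapWord_ok k).1]
      exact list_prod_mem fun y hy => by
        obtain ⟨r, hr, rfl⟩ := List.mem_map.1 hy
        exact hgr r ((swapWord_ok k).2 r hr)
    | one => exact one_mem _
    | mul x y _ _ hx hy => exact mul_mem hx hy
  haveI : Finite ↥(chevB2.group F) := Nat.finite_of_card_ne_zero (by rw [hcard]; norm_num)
  refine ⟨MulEquiv.ofBijective φ (Function.Surjective.bijective_of_nat_card_le hsurj ?_)⟩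
  rw [hcard, Nat.card_eq_fintype_card, Fintype.card_perm, Fintype.card_fin]
  decide

end Cfsg.Agent.ChevSmall.B2
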