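import Cfsg.Agent.ChevSmall.ReeDefs

/-! The checks of the generators 27 to 53. -/

namespace Cfsg.Agent.ChevSmall.Ree

theorem genOK_27 : genOK 27 = true := by decide +kernel

theorem genOK_28 : genOK 28 = true := by decide +kernel

theorem genOK_29 : genOK 29 = true := by decide +kernel

theorem genOK_30 : genOK 30 = true := by decide +kernel

theorem genOK_31 : genOK 31 = true := by decide +kernel

theorem genOK_32 : genOK 32 = true := by decide +kernel

theorem genOK_33 : genOK 33 = true := by decide +kernel

theorem genOK_34 : genOK 34 = true := by decide +kernel

theorem genOK_35 : genOK 35 = true := by decide +kernel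

theorem genOK_36 : genOK 36 = true := by decide +kernel

theorem genOK_37 : genOK 37 = true := by decide +kernel

theorem genOK_38 : genOK 38 = true := by decide +kernel

theorem genOK_39 : genOK 39 = true := by decide +kernel

theorem genOK_40 : genOK 40 = true := by decide +kernel

theorem genOK_41 : genOK 41 = true := by decide +kernel

theorem genOK_42 : genOK 42 = true := by decide +kernel

theorem genOK_43 : genOK 43 = true := by decide +kernel

theorem genOK_44 : genOK 44 = true := by decide +kernel

theorem genOK_45 : genOK 45 = true := by decide +kernel

theorem genOK_46 : genOK 46 = true := by decide +kernel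

theorem genOK_47 : genOK 47 = true := by decide +kernel

theorem genOK_48 : genOK 48 = true := by decide +kernel

theorem genOK_49 : genOK 49 = true := by decide +kernel

theorem genOK_50 : genOK 50 = true := by decide +kernel

theorem genOK_51 : genOK 51 = true := by decide +kernel

theorem genOK_52 : genOK 52 = true := by decide +kernel

theorem genOK_53 : genOK 53 = true := by decide +kernel

end Cfsg.Agent.ChevSmall.Ree
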