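import Cfsg.Agent.ChevSmall.ReeCheck0
import Cfsg.Agent.ChevSmall.ReeCheck1
import Cfsg.Agent.S1069
import Cfsg.Prelude.Def_LieTwisted

/-!
The Ree group over three elements acting on 28 lines, and its derived group.
-/

set_option autoImplicit false

namespace Cfsg.Agent.ChevSmall.Ree

open Cfsg.Lie
open scoped Matrix

theorem orbit_inj : ∀ i j : Fin 28, ∀ e : ZMod 3, orbit i = e • orbit j → i = j := by decide +kernel

theorem terms_eval : ∀ (i : Fin 28) (a : chevG2.Idx) (s : Fin 3),
    Chev.evalV chevG2 (1 : ZMod 3) 1 (terms i s.val) a = ((s.val : ℕ) : ZMod 3) * orbit i a := by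
  decide +kernel

theorem letters_lt : ∀ k : Fin 54, ∀ L ∈ letters k.val, L.r < chevG2.nroots := by decide +kernel

theorem gen_check : ∀ (k : Fin 54) (i : Fin 28), (sign k.val i = 1 ∨ sign k.val i = 2) ∧
    (Chev.collect red3 (applyM (letters k.val) (terms i 1) ++
      Chev.negV (terms (gperm k.val i) (sign k.val i)))).all (fun T => decide (T.c % 3 = 0)) = true := by
  intro k i
  have h : genOK k.val = true := by
    fin_cases k
    · exact genOK_0
    · exact genOK_1
    · exact genOK_2
    · exact genOK_3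
    · exact genOK_4
    · exact genOK_5
    · exact genOK_6
    · exact genOK_7
    · exact genOK_8
    · exact genOK_9
    · exact genOK_10
    · exact genOK_11
    · exact genOK_12
    · exact genOK_13
    · exact genOK_14
    · exact genOK_15
    · exact genOK_16
    · exact genOK_17
    · exact genOK_18
    · exact genOK_19
    · exact genOK_20
    · exact genOK_21
    · exact genOK_22
    · exact genOK_23
    · exact genOK_24
    · exact genOK_25
    · exact genOK_26
    · exact genOK_27
    · exact genOK_28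
    · exact genOK_29
    · exact genOK_30
    · exact genOK_31
    · exact genOK_32
    · exact genOK_33
    · exact genOK_34
    · exact genOK_35
    · exact genOK_36
    · exact genOK_37
    · exact genOK_38
    · exact genOK_39
    · exact genOK_40
    · exact genOK_41
    · exact genOK_42
    · exact genOK_43
    · exact genOK_44
    · exact genOK_45
    · exact genOK_46
    · exact genOK_47
    · exact genOK_48
    · exact genOK_49
    · exact genOK_50
    · exact genOK_51
    · exact genOK_52
    · exact genOK_53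
  simp only [genOK, List.all_eq_true, Bool.and_eq_true, decide_eq_true_eq] at h ⊢
  exact h i (List.mem_finRange i)

/-- The matrix of a generator. -/
noncomputable def genMat (k : ℕ) : Matrix chevG2.Idx chevG2.Idx (ZMod 3) :=
  chevG2.wordMat (ZMod 3) (Chev.evalWord 1 1 (letters k))

theorem gen_act (k : Fin 54) (i : Fin 28) :
    ∃ e : ZMod 3, e * e = 1 ∧ genMat k.val *ᵥ orbit i = e • orbit (gperm k.val i) := by
  obtain ⟨hs, hc⟩ := gen_check k i
  refine ⟨((sign k.val i : ℕ) : ZMod 3), by rcases hs with h | h <;> rw [h] <;> decide, ?_⟩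
  have hs3 : sign k.val i < 3 := by rcases hs with h | h <;> omega
  have e1 : ∀ (j : Fin 28) (s : ℕ), s < 3 →
      Chev.evalV chevG2 (1 : ZMod 3) 1 (terms j s) = ((s : ℕ) : ZMod 3) • orbit j := fun j s hs =>
    funext fun a => terms_eval j a ⟨s, hs⟩
  have h0 : Chev.evalV chevG2 (1 : ZMod 3) 1 (applyM (letters k.val) (terms i 1) ++
      Chev.negV (terms (gperm k.val i) (sign k.val i))) = 0 := by
    rw [← Chev.evalV_collect 1 1 red3 red3_spec]
    simp only [List.all_eq_true, decide_eq_true_eq] at hc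
    funext a
    refine List.sum_eq_zero fun x hx => ?_
    obtain ⟨T, hT, rfl⟩ := List.mem_map.1 hx
    have h3 : ((T.c : ℤ) : ZMod 3) = 0 :=
      (ZMod.intCast_zmod_eq_zero_iff_dvd T.c 3).2 (Int.dvd_of_emod_eq_zero (hc T hT))
    split_ifs <;> simp [Chev.Term.val, h3]
  rw [Chev.evalV_append, Chev.evalV_negV, add_neg_eq_zero, applyM_spec _ (letters_lt k),
    e1 i 1 (by omega), e1 _ _ hs3, Nat.cast_one, one_smul] at h0
  exact h0

theorem params_ok : ∀ t u v : ZMod 3, ∃ k : Fin 54, ∃ k' : Fin 54, k.val < 27 ∧ 27 ≤ k'.val ∧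
    Chev.evalWord 1 1 (letters k.val) = reeWordU 1 t u v ∧
    Chev.evalWord 1 1 (letters k'.val) = reeWordV 1 t u v := by decide +kernel

theorem word_ok : ∀ k : Fin 54, ∃ t u v : ZMod 3,
    Chev.evalWord 1 1 (letters k.val) = reeWordU 1 t u v ∨
    Chev.evalWord 1 1 (letters k.val) = reeWordV 1 t u v := by decide +kernel

/-- The outer element. -/
def aperm : Equiv.Perm (Fin 28) := gperm outer

theorem conj_word : ∀ j : Fin 2,
    wordProd cperm (conjData.getD j.val []) = aperm * cperm j.val * aperm⁻¹ ∧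
      ∀ x ∈ conjData.getD j.val [], x < 2 := by decide +kernel

theorem par_word : ∀ k : Fin 54,
    gperm k.val = aperm ^ (parData.getD k.val (0, [])).1 * wordProd cperm (parData.getD k.val (0, [])).2 ∧
      ∀ x ∈ (parData.getD k.val (0, [])).2, x < 2 := by decide +kernel

theorem outer_lt : outer < 54 ∧ ∀ j : Fin 2, (commData.getD j.val (0, 0)).1 < 54 ∧
    (commData.getD j.val (0, 0)).2 < 54 := by decide +kernel

theorem aperm_cube : aperm ^ 3 = 1 := by decide +kernel

theorem cperm_mem {j : ℕ} (hj : j < 2) : cperm j ∈ derived := by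
  refine Subgroup.subset_closure ?_
  rcases j with _ | _ | j
  · exact Or.inl rfl
  · exact Or.inr rfl
  · omega

theorem word_mem {w : List ℕ} (h : ∀ j ∈ w, j < 2) : wordProd cperm w ∈ derived :=
  list_prod_mem fun x hx => by
    obtain ⟨j, hj, rfl⟩ := List.mem_map.1 hx
    exact cperm_mem (h j hj)

theorem conj_mem {x : Equiv.Perm (Fin 28)} (hx : x ∈ derived) : aperm * x * aperm⁻¹ ∈ derived := by
  have h : derived ≤ derived.comap (MulAut.conj aperm).toMonoidHom := by
    refine (Subgroup.closure_le _).2 ?_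
    rintro x (rfl | rfl) <;>
      simp only [SetLike.mem_coe, Subgroup.mem_comap, MulEquiv.coe_toMonoidHom, MulAut.conj_apply]
    · exact (conj_word 0).1 ▸ word_mem (conj_word 0).2
    · exact (conj_word 1).1 ▸ word_mem (conj_word 1).2
  exact h hx

/-- The group of all the generators. -/
def full : Subgroup (Equiv.Perm (Fin 28)) := Subgroup.closure (Set.range fun k : Fin 54 => gperm k.val)

theorem gperm_mem_full {k : ℕ} (h : k < 54) : gperm k ∈ full := Subgroup.subset_closure ⟨⟨k, h⟩, rfl⟩

theorem derived_le_full : derived ≤ full := by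
  refine (Subgroup.closure_le _).2 ?_
  have h : ∀ j : Fin 2, cperm j.val ∈ full := fun j =>
    mul_mem (mul_mem (gperm_mem_full (outer_lt.2 j).1) (gperm_mem_full (outer_lt.2 j).2))
      (mul_mem (inv_mem (gperm_mem_full (outer_lt.2 j).1)) (inv_mem (gperm_mem_full (outer_lt.2 j).2)))
  rintro x (rfl | rfl)
  exacts [h 0, h 1]

theorem full_le_normalizer : full ≤ Subgroup.normalizer derived := by
  have ha : aperm ∈ Subgroup.normalizer derived := by
    rw [Subgroup.mem_normalizer_iff]
    refine fun x => ⟨conj_mem, fun h => ?_⟩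
    have h2 := conj_mem (conj_mem h)
    have e : aperm * (aperm * (aperm * x * aperm⁻¹) * aperm⁻¹) * aperm⁻¹ =
        aperm ^ 3 * x * (aperm ^ 3)⁻¹ := by
      simp [pow_succ, mul_assoc]
    rwa [e, aperm_cube, one_mul, inv_one, mul_one] at h2
  refine (Subgroup.closure_le _).2 ?_
  rintro _ ⟨k, rfl⟩
  show gperm k.val ∈ Subgroup.normalizer derived
  rw [(par_word k).1]
  exact mul_mem (pow_mem ha _) (Subgroup.le_normalizer (word_mem (par_word k).2))

theorem commutator_full : ⁅full, full⁆ = derived := by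
  refine le_antisymm ?_ ((Subgroup.closure_le _).2 ?_)
  · set N := derived.subgroupOf full
    haveI : N.Normal := (Subgroup.normal_subgroupOf_iff_le_normalizer derived_le_full).2 full_le_normalizer
    have hq : ∀ x y : ↥full ⧸ N, x * y = y * x := by
      let A : ↥full ⧸ N := QuotientGroup.mk ⟨aperm, gperm_mem_full outer_lt.1⟩
      have hall : ∀ g : ↥full, (QuotientGroup.mk g : ↥full ⧸ N) ∈ Subgroup.zpowers A := by
        have htop : (Subgroup.zpowers A).comap (QuotientGroup.mk' N) = ⊤ := by
          rw [eq_top_iff]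
          refine (le_of_eq (Subgroup.closure_closure_coe_preimage
            (k := Set.range fun k : Fin 54 => gperm k.val)).symm).trans ((Subgroup.closure_le _).2 ?_)
          rintro ⟨g, hg'⟩ ⟨k, hk⟩
          obtain rfl : gperm k.val = g := hk
          refine ⟨(((parData.getD k.val (0, [])).1 : ℕ) : ℤ), ?_⟩
          show A ^ _ = QuotientGroup.mk _
          rw [zpow_natCast]
          refine (QuotientGroup.eq (s := N) (a := ⟨aperm, gperm_mem_full outer_lt.1⟩ ^ (parData.getD k.val (0, [])).1)
            (b := ⟨gperm k.val, hg'⟩)).2 ?_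
          show (aperm ^ (parData.getD k.val (0, [])).1)⁻¹ * gperm k.val ∈ derived
          rw [(par_word k).1, inv_mul_cancel_left]
          exact word_mem (par_word k).2
        intro g
        have : g ∈ (Subgroup.zpowers A).comap (QuotientGroup.mk' N) := htop ▸ Subgroup.mem_top g
        exact this
      intro x y
      obtain ⟨g, rfl⟩ := QuotientGroup.mk_surjective x
      obtain ⟨h, rfl⟩ := QuotientGroup.mk_surjective y
      obtain ⟨m, hm⟩ := hall g
      obtain ⟨m', hm'⟩ := hall h
      rw [← hm, ← hm', ← zpow_add, ← zpow_add, add_comm]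
    rw [Subgroup.commutator_le]
    intro a ha b hb
    let x : ↥full := ⟨a, ha⟩
    let y : ↥full := ⟨b, hb⟩
    have h : x * y * x⁻¹ * y⁻¹ ∈ N := by
      rw [← QuotientGroup.eq_one_iff]
      simp only [QuotientGroup.mk_mul, QuotientGroup.mk_inv]
      rw [hq (QuotientGroup.mk x), mul_inv_cancel_right, mul_inv_cancel]
    exact h
  · have h : ∀ j : Fin 2, cperm j.val ∈ ⁅full, full⁆ := fun j => by
      have := Subgroup.commutator_mem_commutator (gperm_mem_full (outer_lt.2 j).1)
        (gperm_mem_full (outer_lt.2 j).2)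
      simpa [cperm, commutatorElement_def, mul_assoc] using this
    rintro x (rfl | rfl)
    exacts [h 0, h 1]

/-- A set of pairs preserved by the derived group. -/
def pairClass : List (Fin 28 × Fin 28) := pairData.map fun p => (Fin.ofNat 28 p.1, Fin.ofNat 28 p.2)

theorem pair_check : ((List.finRange 2).all fun j => pairClass.all fun p =>
      pairClass.contains (cperm j.val p.1, cperm j.val p.2)) = true ∧
    (pairClass.any fun p => !pairClass.contains (aperm p.1, aperm p.2)) = true := by decide +kernel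

theorem pair_invariant : (∀ j : Fin 2, ∀ p ∈ pairClass, ((cperm j.val p.1, cperm j.val p.2)) ∈ pairClass) ∧
    ∃ p ∈ pairClass, (aperm p.1, aperm p.2) ∉ pairClass := by
  obtain ⟨h1, h2⟩ := pair_check
  simp only [List.all_eq_true, List.any_eq_true, Bool.not_eq_true', List.contains_iff_mem,
    ← Bool.not_eq_true] at h1 h2
  exact ⟨fun j => h1 j (List.mem_finRange j), h2⟩

theorem aperm_notMem : aperm ∉ derived := by
  intro h
  obtain ⟨hinv, p, hp, hnot⟩ := pair_invariant
  refine hnot ?_
  have key : ∀ x ∈ derived, ∀ q ∈ pairClass, (x q.1, x q.2) ∈ pairClass := by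
    intro x hx
    rw [derived, ← Subgroup.mem_toSubmonoid,
      Subgroup.closure_toSubmonoid_of_finite (G := Equiv.Perm (Fin 28)) (s := {cperm 0, cperm 1})] at hx
    induction hx using Submonoid.closure_induction with
    | mem x hx =>
      rcases hx with rfl | rfl
      exacts [hinv 0, hinv 1]
    | one => exact fun q hq => hq
    | mul x y _ _ hx hy => exact fun q hq => hx _ (hy q hq)
  exact key _ h p hp

/-- The group acts on the 28 lines through the group of all the generators, and its derived group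
through the derived one. -/
theorem iso_derived (hD : Nat.card derived = 504) :
    Nonempty (↥(commutator ↥(twistedG2 (ZMod 3) 1)) ≃* derived) := by
  haveI : Fact (Nat.Prime 3) := ⟨Nat.prime_three⟩
  have hcard : Nat.card ↥(twistedG2 (ZMod 3) 1) = 1512 := by
    have := Cfsg.Agent.S1069.result (K := ZMod 3) (m := 0) (by simp)
    simpa using this
  haveI : Finite ↥(twistedG2 (ZMod 3) 1) := Nat.finite_of_card_ne_zero (by omega)
  let G := twistedG2 (ZMod 3) 1
  let T : Set ↥G := {g | ∃ k : Fin 54, (g.1 : Matrix chevG2.Idx chevG2.Idx (ZMod 3)) = genMat k.val}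
  have hT : Subgroup.closure T = ⊤ := by
    rw [eq_top_iff]
    refine (le_of_eq (Subgroup.closure_closure_coe_preimage
      (k := {g : GL chevG2.Idx (ZMod 3) | ∃ w ∈ g2Words (ZMod 3) 1,
        (g : Matrix chevG2.Idx chevG2.Idx (ZMod 3)) = chevG2.wordMat (ZMod 3) w})).symm).trans
      (Subgroup.closure_mono ?_)
    rintro g ⟨w, ⟨t, u, v, hw⟩, hg⟩
    obtain ⟨k, k', -, -, e1, e2⟩ := params_ok t u v
    rcases hw with rfl | rfl
    · exact ⟨k, hg.trans (congrArg _ e1.symm)⟩
    · exact ⟨k', hg.trans (congrArg _ e2.symm)⟩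
  let R : ↥G → Equiv.Perm (Fin 28) → Prop := fun g σ => ∀ i, ∃ e : ZMod 3, e * e = 1 ∧
    (g.1 : Matrix chevG2.Idx chevG2.Idx (ZMod 3)) *ᵥ orbit i = e • orbit (σ i)
  have huniq : ∀ g σ σ', R g σ → R g σ' → σ = σ' := fun g σ σ' h h' => Equiv.ext fun i => by
    obtain ⟨e, he, h1⟩ := h i
    obtain ⟨e', -, h2⟩ := h' i
    refine orbit_inj _ _ (e * e') ?_
    rw [mul_smul, ← h2, h1, smul_smul, he, one_smul]
  have hR : ∀ (g : ↥G) (k : Fin 54), (g.1 : Matrix chevG2.Idx chevG2.Idx (ZMod 3)) = genMat k.val →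
      R g (gperm k.val) := fun g k hg i => hg ▸ gen_act k i
  obtain ⟨φ, hφ⟩ := exists_hom_of_rel R (fun i => ⟨1, one_mul 1, by simp⟩)
    (fun g g' σ σ' h h' i => by
      obtain ⟨e', he', h2⟩ := h' i
      obtain ⟨e, he, h1⟩ := h (σ' i)
      refine ⟨e' * e, by rw [mul_mul_mul_comm, he', he, one_mul], ?_⟩
      show ((g * g').1 : Matrix chevG2.Idx chevG2.Idx (ZMod 3)) *ᵥ orbit i = (e' * e) • orbit (σ (σ' i))
      rw [Subgroup.coe_mul, Units.val_mul, ← Matrix.mulVec_mulVec, h2, Matrix.mulVec_smul, h1, smul_smul])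
    (fun g σ h i => by
      obtain ⟨e, he, h1⟩ := h (σ⁻¹ i)
      refine ⟨e, he, ?_⟩
      rw [show σ (σ⁻¹ i) = i by simp] at h1
      have h2 := congrArg (fun w => ((g⁻¹).1 : Matrix chevG2.Idx chevG2.Idx (ZMod 3)) *ᵥ w) h1
      simp only [Matrix.mulVec_mulVec, Matrix.mulVec_smul] at h2
      have h3 : ((g⁻¹).1 : Matrix chevG2.Idx chevG2.Idx (ZMod 3)) * (g.1 : Matrix _ _ (ZMod 3)) = 1 := by
        rw [← Units.val_mul, ← Subgroup.coe_mul, inv_mul_cancel]
        rfl
      rw [h3, Matrix.one_mulVec] at h2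
      rw [h2, smul_smul, he, one_smul])
    huniq hT (fun g ⟨k, hk⟩ => ⟨_, hR g k hk⟩)
  have hrange : φ.range = full := by
    refine le_antisymm ?_ ((Subgroup.closure_le _).2 ?_)
    · rw [MonoidHom.range_eq_map, ← hT, MonoidHom.map_closure, Subgroup.closure_le]
      rintro _ ⟨g, ⟨k, hk⟩, rfl⟩
      rw [huniq g _ _ (hφ g) (hR g k hk)]
      exact Subgroup.subset_closure ⟨k, rfl⟩
    · rintro _ ⟨k, rfl⟩
      obtain ⟨t, u, v, hw⟩ := word_ok k
      have hmem : ∀ w ∈ g2Words (ZMod 3) 1, ∃ g : ↥G,
          (g.1 : Matrix chevG2.Idx chevG2.Idx (ZMod 3)) = chevG2.wordMat (ZMod 3) w := fun w hw =>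
        have hS : ChevGrp.Rules chevG2 (ZMod 3) := ChevTw.rulesG2 (ZMod 3)
        ⟨⟨(w.map fun p => ChevGrp.xGL chevG2 (ZMod 3) p.1 p.2).prod,
          Subgroup.subset_closure ⟨w, hw, ChevGrp.val_word hS w⟩⟩, ChevGrp.val_word hS w⟩
      obtain ⟨g, hg⟩ := hmem (Chev.evalWord 1 1 (letters k.val)) ⟨t, u, v, hw⟩
      exact ⟨g, huniq g _ _ (hφ g) (hR g k hg)⟩
  have hdvd : Nat.card full ∣ 1512 := by
    rw [← hrange, ← hcard]
    exact Subgroup.card_range_dvd φ
  have hdvd' : 504 ∣ Nat.card full := hD ▸ Subgroup.card_dvd_of_le derived_le_full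
  have hne : Nat.card full ≠ 504 := fun h => by
    have := Subgroup.eq_of_le_of_card_ge derived_le_full (by omega)
    exact aperm_notMem (this ▸ gperm_mem_full outer_lt.1)
  have hfull : Nat.card full = 1512 := by
    have h1 := Nat.le_of_dvd (by norm_num) hdvd
    obtain ⟨c, hc⟩ := hdvd'
    have : c = 1 ∨ c = 2 ∨ c = 3 := by have := Nat.card_pos (α := ↥full); omega
    rcases this with rfl | rfl | rfl
    · omega
    · rw [hc] at hdvd; norm_num at hdvd
    · omega
  have hbij : Function.Bijective φ.rangeRestrict :=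
    (Nat.bijective_iff_surjective_and_card _).2 ⟨φ.rangeRestrict_surjective, by rw [hrange, hfull]; exact hcard⟩
  have hinj : Function.Injective φ := fun a b hab => hbij.1 (Subtype.ext hab)
  have hmapc : (commutator ↥G).map φ = derived := by
    rw [commutator_def, Subgroup.map_commutator, ← MonoidHom.range_eq_map, hrange, commutator_full]
  exact ⟨((commutator ↥G).equivMapOfInjective φ hinj).trans (MulEquiv.subgroupCongr hmapc)⟩

end Cfsg.Agent.ChevSmall.Ree
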