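import Cfsg.Agent.ChevSmall.ReeDefs

/-! The checks of the generators 0 to 26. -/

namespace Cfsg.Agent.ChevSmall.Ree

theorem genOK_0 : genOK 0 = true := by decide +kernel

theorem genOK_1 : genOK 1 = true := by decide +kernel

theorem genOK_2 : genOK 2 = true := by decide +kernel

theorem genOK_3 : genOK 3 = true := by decide +kernel

theorem genOK_4 : genOK 4 = true := by decide +kernel

theorem genOK_5 : genOK 5 = true := by decide +kernel

theorem genOK_6 : genOK 6 = true := by decide +kernel

theorem genOK_7 : genOK 7 = true := by decide +kernel

theorem genOK_8 : genOK 8 = true := by decide +kernel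

theorem genOK_9 : genOK 9 = true := by decide +kernel

theorem genOK_10 : genOK 10 = true := by decide +kernel

theorem genOK_11 : genOK 11 = true := by decide +kernel

theorem genOK_12 : genOK 12 = true := by decide +kernel

theorem genOK_13 : genOK 13 = true := by decide +kernel

theorem genOK_14 : genOK 14 = true := by decide +kernel

theorem genOK_15 : genOK 15 = true := by decide +kernel

theorem genOK_16 : genOK 16 = true := by decide +kernel

theorem genOK_17 : genOK 17 = true := by decide +kernel

theorem genOK_18 : genOK 18 = true := by decide +kernel

theorem genOK_19 : genOK 19 = true := by decide +kernel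

theorem genOK_20 : genOK 20 = true := by decide +kernel

theorem genOK_21 : genOK 21 = true := by decide +kernel

theorem genOK_22 : genOK 22 = true := by decide +kernel

theorem genOK_23 : genOK 23 = true := by decide +kernel

theorem genOK_24 : genOK 24 = true := by decide +kernel

theorem genOK_25 : genOK 25 = true := by decide +kernel

theorem genOK_26 : genOK 26 = true := by decide +kernel

end Cfsg.Agent.ChevSmall.Ree
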