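import Cfsg.Agent.ChevSmall.Tools
import Cfsg.Agent.ChevSmall.ReeData
import Cfsg.Agent.Chev.Term
import Cfsg.Prelude.Def_LieTwisted

/-!
Definitions for the Ree group over three elements acting on 28 lines.
-/

set_option autoImplicit false

namespace Cfsg.Agent.ChevSmall.Ree

open Cfsg.Lie
open scoped Matrix

/-- An entry of the table of a generator. -/
def tabF (k : ℕ) (i : Fin 28) : Fin 28 := Fin.ofNat 28 ((permData.getD k []).getD i.val i.val)

/-- An entry of the table of the inverse of a generator. -/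
def tabI (k : ℕ) (i : Fin 28) : Fin 28 := Fin.ofNat 28 ((invData.getD k []).getD i.val i.val)

theorem tab_ok : ∀ k : Fin 54, ∀ i : Fin 28, tabI k.val (tabF k.val i) = i ∧ tabF k.val (tabI k.val i) = i := by
  decide +kernel

theorem tab_inv (k : ℕ) (i : Fin 28) : tabI k (tabF k i) = i ∧ tabF k (tabI k i) = i := by
  by_cases h : k < 54
  · exact tab_ok ⟨k, h⟩ i
  · have h1 : permData.getD k [] = [] := List.getD_eq_default _ _ (by
      have : permData.length = 54 := rfl
      omega)
    have h2 : invData.getD k [] = [] := List.getD_eq_default _ _ (by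
      have : invData.length = 54 := rfl
      omega)
    have e : ∀ j : Fin 28, tabF k j = j ∧ tabI k j = j := fun j => by
      simp only [tabF, tabI, h1, h2, List.getD_nil]
      exact ⟨Fin.ofNat_val_eq_self j, Fin.ofNat_val_eq_self j⟩
    exact ⟨by rw [(e i).1, (e i).2], by rw [(e i).2, (e i).1]⟩

/-- The permutation of a generator. -/
def gperm (k : ℕ) : Equiv.Perm (Fin 28) where
  toFun := tabF k
  invFun := tabI k
  left_inv i := (tab_inv k i).1
  right_inv i := (tab_inv k i).2

/-- The two commutators. -/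
def cperm (j : ℕ) : Equiv.Perm (Fin 28) :=
  let p := commData.getD j (0, 0)
  gperm p.1 * gperm p.2 * ((gperm p.1)⁻¹ * (gperm p.2)⁻¹)

/-- The group generated by the two commutators. -/
def derived : Subgroup (Equiv.Perm (Fin 28)) := Subgroup.closure {cperm 0, cperm 1}

/-- The parameters of a generator. -/
def params (k : ℕ) : ℤ × ℤ × ℤ := ((k % 27 / 9 : ℕ), (k % 9 / 3 : ℕ), (k % 3 : ℕ))

/-- The word of a generator. -/
def letters (k : ℕ) : List Chev.Letter :=
  let p := params k
  let U : List (ℕ × ℤ) := [(7, p.1), (6, p.1), (8, p.1 ^ 2 + p.2.1), (9, p.1 ^ 3 + p.2.2),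
    (10, p.2.1), (11, p.2.2)]
  if k < 27 then U.map fun q => ⟨q.1, q.2, 0, 0⟩
  else U.map fun q => ⟨chevG2.neg q.1, -q.2, 0, 0⟩

/-- The vector of a line. -/
def orbit (i : Fin 28) : chevG2.Idx → ZMod 3 :=
  fun a => (((orbitData.getD i.val []).getD (Chev.code chevG2 a) 0 : ℕ) : ZMod 3)

/-- The terms of a vector. -/
def terms (i : Fin 28) (s : ℕ) : List Chev.Term :=
  (List.range 14).map fun c => ⟨c, 0, 0, ((s * (orbitData.getD i.val []).getD c 0 : ℕ) : ℤ)⟩

/-- Reduction modulo three. -/
def red3 (T : Chev.Term) : Chev.Term := { T with c := T.c % 3 }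

/-- Applying a word with reduction. -/
def applyM (W : List Chev.Letter) (V : List Chev.Term) : List Chev.Term :=
  W.foldr (fun L V => Chev.collect red3 (Chev.step chevG2 L V)) V

/-- The sign of a generator at a line. -/
def sign (k : ℕ) (i : Fin 28) : ℕ := (signData.getD k []).getD i.val 0

theorem red3_spec (T : Chev.Term) :
    (red3 T).row = T.row ∧ (red3 T).val (1 : ZMod 3) 1 = T.val 1 1 := by
  refine ⟨rfl, ?_⟩
  simp only [Chev.Term.val, red3, one_pow, mul_one]
  exact (ZMod.intCast_eq_intCast_iff' _ _ 3).2 (Int.emod_emod _ _)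

theorem applyM_spec (W : List Chev.Letter) (hW : ∀ L ∈ W, L.r < chevG2.nroots) (V : List Chev.Term) :
    Chev.evalV chevG2 (1 : ZMod 3) 1 (applyM W V) =
      chevG2.wordMat (ZMod 3) (Chev.evalWord 1 1 W) *ᵥ Chev.evalV chevG2 1 1 V := by
  induction W with
  | nil => simp [applyM, ChevalleyDatum.wordMat, Chev.evalWord]
  | cons L W ih =>
    have h1 : applyM (L :: W) V = Chev.collect red3 (Chev.step chevG2 L (applyM W V)) := rfl
    have h2 : chevG2.wordMat (ZMod 3) (Chev.evalWord 1 1 (L :: W)) =
        chevG2.x (ZMod 3) L.r (L.param 1 1) * chevG2.wordMat (ZMod 3) (Chev.evalWord 1 1 W) := by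
      simp [ChevalleyDatum.wordMat, Chev.evalWord]
    rw [h1, h2, Chev.evalV_collect 1 1 red3 red3_spec, ← Chev.x_mulVec_evalV (hW L (by simp)),
      ih fun x hx => hW x (List.mem_cons_of_mem _ hx), Matrix.mulVec_mulVec]

/-- The check of a generator. -/
def genOK (k : ℕ) : Bool :=
  (List.finRange 28).all fun i => decide (sign k i = 1 ∨ sign k i = 2) &&
    (Chev.collect red3 (applyM (letters k) (terms i 1) ++
      Chev.negV (terms (gperm k i) (sign k i)))).all (fun T => decide (T.c % 3 = 0))

end Cfsg.Agent.ChevSmall.Ree
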