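import Cfsg.Agent.ChevSmall.Ree
import Cfsg.Agent.Linear.Transvection
import Cfsg.Agent.Linear.Orders

/-!
The derived group on 28 points is the projective special linear group over eight elements.
-/

set_option autoImplicit false

namespace Cfsg.Agent.ChevSmall.Ree

open scoped Matrix

/-- The model of the field with eight elements. -/
abbrev M8 : Type := ZMod 2 × ZMod 2 × ZMod 2

/-- The product of the model. -/
def mul8 (p q : M8) : M8 :=
  (p.1 * q.1 + p.2.1 * q.2.2 + p.2.2 * q.2.1,
    p.1 * q.2.1 + p.2.1 * q.1 + p.2.1 * q.2.2 + p.2.2 * q.2.1 + p.2.2 * q.2.2,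
    p.1 * q.2.2 + p.2.1 * q.2.1 + p.2.2 * q.1 + p.2.2 * q.2.2)

/-- Read a number below eight. -/
def ofBits (n : ℕ) : M8 := ((n : ZMod 2), ((n / 2 : ℕ) : ZMod 2), ((n / 4 : ℕ) : ZMod 2))

/-- The points. -/
def point (i : Fin 28) : M8 × M8 :=
  let p := pointData.getD i.val (0, 0)
  (ofBits p.1, ofBits p.2)

/-- An entry of a model matrix. -/
def mat8 (m : Fin 2) (a b : Fin 2) : M8 := ofBits ((matData.getD m.val []).getD (2 * a.val + b.val) 0)

/-- The action of a matrix on a point. -/
def act8 (g : Fin 2 → Fin 2 → M8) (v : M8 × M8) : M8 × M8 :=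
  (mul8 (mul8 (g 0 0) (g 0 0)) v.1 + mul8 (g 0 0) (g 0 1) + mul8 (mul8 (g 0 1) (g 0 1)) v.2,
    mul8 (mul8 (g 1 0) (g 1 0)) v.1 + mul8 (g 1 0) (g 1 1) + mul8 (mul8 (g 1 1) (g 1 1)) v.2)

/-- The product of two matrices of the model. -/
def matMul8 (g h : Fin 2 → Fin 2 → M8) : Fin 2 → Fin 2 → M8 :=
  fun a b => mul8 (g a 0) (h 0 b) + mul8 (g a 1) (h 1 b)

/-- The identity of the model. -/
def matOne8 : Fin 2 → Fin 2 → M8 := fun a b => if a = b then ofBits 1 else ofBits 0

/-- The value of a word in the two matrices. -/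
def word8 (w : List ℕ) : Fin 2 → Fin 2 → M8 :=
  w.foldr (fun j acc => matMul8 (mat8 (Fin.ofNat 2 j)) acc) matOne8

theorem point_inj : ∀ i j : Fin 28, point i = point j → i = j := by decide +kernel

theorem mat_act : ∀ (m : Fin 2) (i : Fin 28), act8 (mat8 m) (point i) = point (cperm m.val i) := by
  decide +kernel

theorem mat_det : ∀ m : Fin 2, mul8 (mat8 m 0 0) (mat8 m 1 1) + mul8 (mat8 m 0 1) (mat8 m 1 0) = ofBits 1 := by
  decide +kernel

theorem el_word : ∀ k : Fin 3,
    (∀ a b : Fin 2, word8 (elData.getD k.val []) a b =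
      if a = b then ofBits 1 else if a = 0 then ofBits (2 ^ k.val) else ofBits 0) ∧
    (∀ a b : Fin 2, word8 (elData.getD (k.val + 3) []) a b =
      if a = b then ofBits 1 else if a = 1 then ofBits (2 ^ k.val) else ofBits 0) := by decide +kernel

theorem bits_span : ∀ p : M8, p = (if p.1 = 1 then ofBits 1 else ofBits 0) +
    (if p.2.1 = 1 then ofBits 2 else ofBits 0) + (if p.2.2 = 1 then ofBits 4 else ofBits 0) := by
  decide +kernel

theorem iso_psl {L : Type*} [Field L] [Fintype L] (hL : Fintype.card L = 8) :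
    Nat.card derived = 504 ∧ Nonempty (derived ≃* Matrix.ProjectiveSpecialLinearGroup (Fin 2) L) := by
  classical
  haveI : CharP L 2 := by
    haveI : Fact (Nat.Prime 2) := ⟨Nat.prime_two⟩
    exact charP_of_card_eq_prime_pow (f := 3) (by rw [hL]; norm_num)
  have h2 : (2 : L) = 0 := CharTwo.two_eq_zero
  -- a root of x³ + x + 1
  obtain ⟨θ, hθ⟩ : ∃ θ : L, θ ^ 3 = θ + 1 := by
    obtain ⟨x, hx⟩ : ∃ x : L, x ∉ ({0, 1} : Finset L) :=
      (Finset.exists_mem_notMem_of_card_lt_card (t := Finset.univ) (by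
        rw [Finset.card_univ, hL]
        exact lt_of_le_of_lt Finset.card_le_two (by norm_num))).imp fun _ h => h.2
    simp only [Finset.mem_insert, Finset.mem_singleton, not_or] at hx
    have h7 : x ^ 7 = 1 := by
      have := FiniteField.pow_card_sub_one_eq_one x hx.1
      rwa [hL] at this
    have hfac : (x ^ 3 + x + 1) * (x ^ 3 + x ^ 2 + 1) = 0 := by
      have : (x - 1) * ((x ^ 3 + x + 1) * (x ^ 3 + x ^ 2 + 1)) = 0 := ?_
      · exact (mul_eq_zero.1 this).resolve_left (sub_ne_zero.2 hx.2)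
      linear_combination h7 + (x ^ 4 - x ^ 3) * h2
    rcases mul_eq_zero.1 hfac with h | h
    · exact ⟨x, by linear_combination h - (x + 1) * h2⟩
    · refine ⟨x⁻¹, ?_⟩
      have hx0 : x ≠ 0 := hx.1
      field_simp
      linear_combination h - (x ^ 3 + x ^ 2) * h2
  let c : ZMod 2 →+* L := ZMod.castHom dvd_rfl L
  let f : M8 → L := fun p => c p.1 + c p.2.1 * θ + c p.2.2 * θ ^ 2
  have f_add : ∀ p q, f (p + q) = f p + f q := fun p q => by
    simp only [f, Prod.fst_add, Prod.snd_add, map_add]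
    ring
  have f_mul : ∀ p q, f (mul8 p q) = f p * f q := fun p q => by
    simp only [f, mul8, map_add, map_mul]
    linear_combination -(c p.2.1 * c q.2.2 + c p.2.2 * c q.2.1 + c p.2.2 * c q.2.2 * θ) * hθ
  have f_one : f (ofBits 1) = 1 := by
    have : ofBits 1 = ((1 : ZMod 2), (0 : ZMod 2), (0 : ZMod 2)) := by decide +kernel
    simp [f, this]
  have f_zero : f (ofBits 0) = 0 := by
    have : ofBits 0 = ((0 : ZMod 2), (0 : ZMod 2), (0 : ZMod 2)) := by decide +kernel
    simp [f, this]
  have f_inj : Function.Injective f := by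
    have hne : ∀ p : M8, p ≠ 0 → ∃ q : M8, mul8 p q = ofBits 1 := by decide +kernel
    intro p q hpq
    by_contra h
    obtain ⟨r, hr⟩ := hne (p - q) (sub_ne_zero.2 h)
    have h0 : f (p - q) = 0 := by
      have : f p = f (p - q) + f q := by rw [← f_add, sub_add_cancel]
      rw [hpq] at this
      linear_combination -this
    have := f_mul (p - q) r
    rw [hr, f_one, h0, zero_mul] at this
    exact one_ne_zero this
  have f_surj : Function.Surjective f :=
    ((Fintype.bijective_iff_injective_and_card f).2 ⟨f_inj, by rw [hL]; rfl⟩).2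
  -- the matrices
  let A : Fin 2 → Matrix (Fin 2) (Fin 2) L := fun m => Matrix.of fun a b => f (mat8 m a b)
  have hdet : ∀ m, (A m).det = 1 := fun m => by
    have h := congrArg f (mat_det m)
    simp only [f_add, f_mul, f_one] at h
    rw [Matrix.det_fin_two, CharTwo.sub_eq_add]
    simpa [A] using h
  let g : Fin 2 → Matrix.SpecialLinearGroup (Fin 2) L := fun m => ⟨A m, hdet m⟩
  let Q := Subgroup.closure (Set.range g)
  -- generation
  have hQtop : Q = ⊤ := by
    have hw : ∀ w : List ℕ, ∃ x ∈ Q, ∀ a b, (x : Matrix (Fin 2) (Fin 2) L) a b = f (word8 w a b) := by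
      intro w
      induction w with
      | nil =>
        refine ⟨1, one_mem _, fun a b => ?_⟩
        simp only [word8, List.foldr_nil, matOne8]
        by_cases h : a = b <;> simp [h, f_one, f_zero]
      | cons j w ih =>
        obtain ⟨x, hx, hxe⟩ := ih
        refine ⟨g (Fin.ofNat 2 j) * x, mul_mem (Subgroup.subset_closure ⟨_, rfl⟩) hx, fun a b => ?_⟩
        rw [Matrix.SpecialLinearGroup.coe_mul, Matrix.mul_apply, Fin.sum_univ_two, hxe, hxe]
        show f (mat8 _ a 0) * _ + f (mat8 _ a 1) * _ = _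
        rw [← f_mul, ← f_mul, ← f_add]
        rfl
    refine Linear.eq_top_of_transvection_mem _ fun i j hij c => ?_
    let P : AddSubgroup L :=
      { carrier := {c | Matrix.SpecialLinearGroup.transvection hij c ∈ Q}
        zero_mem' := by
          show Matrix.SpecialLinearGroup.transvection hij (0 : L) ∈ Q
          rw [show Matrix.SpecialLinearGroup.transvection hij (0 : L) = 1 from Subtype.ext (by simp)]
          exact one_mem _
        add_mem' := fun {a b} ha hb => by
          show Matrix.SpecialLinearGroup.transvection hij (a + b) ∈ Q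
          rw [show Matrix.SpecialLinearGroup.transvection hij (a + b) =
            Matrix.SpecialLinearGroup.transvection hij a * Matrix.SpecialLinearGroup.transvection hij b from
            Subtype.ext (by simp [Matrix.SpecialLinearGroup.transvection_coe, mul_add, add_mul,
              Matrix.single_mul_single_of_ne _ _ _ _ hij.symm, ← Matrix.single_add, add_assoc])]
          exact mul_mem ha hb
        neg_mem' := fun {a} ha => by
          show Matrix.SpecialLinearGroup.transvection hij (-a) ∈ Q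
          rwa [CharTwo.neg_eq] }
    have hbit : ∀ k : Fin 3, f (ofBits (2 ^ k.val)) ∈ P := by
      intro k
      show Matrix.SpecialLinearGroup.transvection hij _ ∈ Q
      obtain ⟨hu, hl⟩ := el_word k
      obtain ⟨rfl, rfl⟩ | ⟨rfl, rfl⟩ : (i = 0 ∧ j = 1) ∨ (i = 1 ∧ j = 0) := by omega
      · obtain ⟨x, hx, hxe⟩ := hw (elData.getD k.val [])
        convert hx using 1
        refine Subtype.ext (Matrix.ext fun a b => ?_)
        rw [hxe, hu]
        fin_cases a <;> fin_cases b <;> simp [Matrix.SpecialLinearGroup.transvection_coe, f_one, f_zero]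
      · obtain ⟨x, hx, hxe⟩ := hw (elData.getD (k.val + 3) [])
        convert hx using 1
        refine Subtype.ext (Matrix.ext fun a b => ?_)
        rw [hxe, hl]
        fin_cases a <;> fin_cases b <;> simp [Matrix.SpecialLinearGroup.transvection_coe, f_one, f_zero]
    obtain ⟨p, rfl⟩ := f_surj c
    rw [bits_span p, f_add, f_add]
    refine P.add_mem (P.add_mem ?_ ?_) ?_ <;> split_ifs <;>
      first
        | exact hbit 0
        | exact hbit 1
        | exact hbit 2
        | (rw [f_zero]; exact P.zero_mem)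
  -- the action on the points
  let Af : Matrix (Fin 2) (Fin 2) L → L × L → L × L := fun x v =>
    (x 0 0 * x 0 0 * v.1 + x 0 0 * x 0 1 + x 0 1 * x 0 1 * v.2,
      x 1 0 * x 1 0 * v.1 + x 1 0 * x 1 1 + x 1 1 * x 1 1 * v.2)
  have hAf : ∀ x y : Matrix (Fin 2) (Fin 2) L, y.det = 1 → ∀ v, Af (x * y) v = Af x (Af y v) := by
    intro x y hy v
    rw [Matrix.det_fin_two, CharTwo.sub_eq_add] at hy
    simp only [Af, Matrix.mul_apply, Fin.sum_univ_two, Prod.mk.injEq]
    constructor
    · linear_combination (x 0 0 * x 0 1) * hy +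
        (x 0 0 * x 0 1 * (y 0 0 * y 1 0 * v.1 + y 0 1 * y 1 1 * v.2)) * h2
    · linear_combination (x 1 0 * x 1 1) * hy +
        (x 1 0 * x 1 1 * (y 0 0 * y 1 0 * v.1 + y 0 1 * y 1 1 * v.2)) * h2
  let O : Fin 28 → L × L := fun i => (f (point i).1, f (point i).2)
  let R : ↥Q → Equiv.Perm (Fin 28) → Prop := fun x σ =>
    ∀ i, Af (x.1 : Matrix (Fin 2) (Fin 2) L) (O i) = O (σ i)
  have hOinj : Function.Injective O := fun i j h =>
    point_inj i j (Prod.ext (f_inj (congrArg Prod.fst h)) (f_inj (congrArg Prod.snd h)))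
  have huniq : ∀ x σ σ', R x σ → R x σ' → σ = σ' := fun x σ σ' h h' =>
    Equiv.ext fun i => hOinj ((h i).symm.trans (h' i))
  have hgR : ∀ m, R ⟨g m, Subgroup.subset_closure ⟨m, rfl⟩⟩ (cperm m.val) := fun m i => by
    have h := mat_act m i
    have h1 := congrArg Prod.fst h
    have h3 := congrArg Prod.snd h
    simp only [act8] at h1 h3
    have e1 := congrArg f h1
    have e3 := congrArg f h3
    simp only [f_add, f_mul] at e1 e3
    exact Prod.ext e1 e3
  have hAf1 : ∀ v, Af 1 v = v := fun v => by simp [Af]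
  obtain ⟨ψ, hψ⟩ := exists_hom_of_rel R (fun i => by simpa using hAf1 (O i))
    (fun x y σ σ' h h' i => by
      show Af ((x.1 * y.1 : Matrix.SpecialLinearGroup (Fin 2) L) : Matrix (Fin 2) (Fin 2) L) (O i) = O (σ (σ' i))
      rw [Matrix.SpecialLinearGroup.coe_mul, hAf _ _ y.1.2, h' i, h (σ' i)])
    (fun x σ h i => by
      have h1 := h (σ⁻¹ i)
      rw [show σ (σ⁻¹ i) = i by simp] at h1
      show Af ((x.1⁻¹ : Matrix.SpecialLinearGroup (Fin 2) L) : Matrix (Fin 2) (Fin 2) L) (O i) = O (σ⁻¹ i)
      rw [← h1, ← hAf _ _ x.1.2, ← Matrix.SpecialLinearGroup.coe_mul, inv_mul_cancel,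
        Matrix.SpecialLinearGroup.coe_one, hAf1])
    huniq (T := Subtype.val ⁻¹' Set.range g) Subgroup.closure_closure_coe_preimage
    (fun x ⟨m, hm⟩ => ⟨cperm m.val, by
      obtain rfl : x = ⟨g m, Subgroup.subset_closure ⟨m, rfl⟩⟩ := Subtype.ext hm.symm
      exact hgR m⟩)
  have hrange : ψ.range = derived := by
    refine le_antisymm ?_ ((Subgroup.closure_le _).2 ?_)
    · rw [MonoidHom.range_eq_map]
      refine (Subgroup.map_mono (le_of_eq (Subgroup.closure_closure_coe_preimage
        (k := Set.range g)).symm)).trans ?_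
      rw [MonoidHom.map_closure, Subgroup.closure_le]
      rintro _ ⟨x, ⟨m, hm⟩, rfl⟩
      obtain rfl : x = ⟨g m, Subgroup.subset_closure ⟨m, rfl⟩⟩ := Subtype.ext hm.symm
      rw [huniq _ _ _ (hψ _) (hgR m)]
      exact cperm_mem m.2
    · rintro x (rfl | rfl)
      · exact ⟨⟨g 0, Subgroup.subset_closure ⟨0, rfl⟩⟩, huniq _ _ (cperm 0) (hψ _) (hgR 0)⟩
      · exact ⟨⟨g 1, Subgroup.subset_closure ⟨1, rfl⟩⟩, huniq _ _ (cperm 1) (hψ _) (hgR 1)⟩
  -- the centre is trivial
  have hcard : Nat.card (Matrix.SpecialLinearGroup (Fin 2) L) = 504 := by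
    rw [Linear.card_SL_two, hL]
  have hPSL : Nat.card (Matrix.ProjectiveSpecialLinearGroup (Fin 2) L) = 504 := by
    have h := Linear.card_PSL_two_mul (F := L)
    rw [hL] at h
    simpa using h
  haveI : Finite (Matrix.SpecialLinearGroup (Fin 2) L) := Nat.finite_of_card_ne_zero (by omega)
  let π : Matrix.SpecialLinearGroup (Fin 2) L →* Matrix.ProjectiveSpecialLinearGroup (Fin 2) L :=
    QuotientGroup.mk' _
  have hπ : Function.Bijective π :=
    (Nat.bijective_iff_surjective_and_card π).2 ⟨QuotientGroup.mk'_surjective _, hcard.trans hPSL.symm⟩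
  let e : ↥Q ≃* Matrix.ProjectiveSpecialLinearGroup (Fin 2) L :=
    (MulEquiv.subgroupCongr hQtop).trans (Subgroup.topEquiv.trans (MulEquiv.ofBijective π hπ))
  haveI : IsSimpleGroup (Matrix.ProjectiveSpecialLinearGroup (Fin 2) L) :=
    Linear.isSimpleGroup_PSL_fin 2 le_rfl (fun _ => by rw [Nat.card_eq_fintype_card, hL]; norm_num)
  haveI : IsSimpleGroup ↥Q := e.isSimpleGroup
  have hψinj : Function.Injective ψ := by
    rcases ψ.normal_ker.eq_bot_or_eq_top with h | h
    · exact (MonoidHom.ker_eq_bot_iff ψ).1 h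
    · have h1 : cperm 0 = 1 := by
        rw [← huniq _ _ (cperm 0) (hψ _) (hgR 0)]
        exact MonoidHom.mem_ker.1 (h ▸ Subgroup.mem_top _)
      exact absurd h1 (by decide +kernel)
  let e' : derived ≃* Matrix.ProjectiveSpecialLinearGroup (Fin 2) L :=
    ((MulEquiv.subgroupCongr hrange).symm.trans (MonoidHom.ofInjective hψinj).symm).trans e
  exact ⟨(Nat.card_congr e'.toEquiv).trans hPSL, ⟨e'⟩⟩

end Cfsg.Agent.ChevSmall.Ree
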